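import Cfsg.Agent.H938.Pw.FThree
import Cfsg.Agent.H180.F43.Gal

/-!
# `F₄(3)`, S2464: the sieve for a fixed pair (orders `73`, `41`)

* `fixed` : `|C(g)| ≤ 4976985092`, the order of `g` prime to `73 · 41`, `x`, `y` any elements of order `73`, `41`: `Prd x y g`.
-/

set_option autoImplicit false

open Cfsg Cfsg.Lie Subgroup

namespace Cfsg.Agent.H180.F43

open Cfsg.Agent.H65.Ore

universe u

variable {K : Type u} [Field K] [Fintype K]

theorem not_dvd_73 (hK : Fintype.card K = 3) : ¬ 73 ^ 2 ∣ Nat.card ↥(chevF4.group K) := by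
  rw [H938.Pw.FThree.card_eq hK]
  norm_num

theorem not_dvd_41 (hK : Fintype.card K = 3) : ¬ 41 ^ 2 ∣ Nat.card ↥(chevF4.group K) := by
  rw [H938.Pw.FThree.card_eq hK]
  norm_num

/-- any two pairs of elements of orders `73`, `41` have the same products, up to the elements of order divisible by `73`
or `41` -/
theorem prd_of_mul_F4 (hK : Fintype.card K = 3) {g x' y' : ↥(chevF4.group K)} (hg : (orderOf g).Coprime (73 * 41))
    (hx' : orderOf x' = 73) (hy' : orderOf y' = 41)
    (h : ∃ x y : ↥(chevF4.group K), orderOf x = 73 ∧ orderOf y = 41 ∧ g = x * y) : Prd x' y' g := by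
  have : Finite ↥(chevF4.group K) := Nat.finite_of_card_ne_zero (by rw [H938.Pw.FThree.card_eq hK]; norm_num)
  exact prd_of_mul (by norm_num) (by norm_num) (by norm_num) (not_dvd_73 hK) (not_dvd_41 hK) hg hx' hy' h

theorem fixed (hK : Fintype.card K = 3) {g x y : ↥(chevF4.group K)} (hg : (orderOf g).Coprime (73 * 41))
    (hx : orderOf x = 73) (hy : orderOf y = 41)
    (hc : Nat.card (centralizer ({g} : Set ↥(chevF4.group K))) ≤ 4976985092) : Prd x y g :=
  prd_of_mul_F4 hK hg hx hy (H938.Pw.FThree.prod hK hc)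

end Cfsg.Agent.H180.F43
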